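-- helper1: project R3 (S1788), package [PSU]: PSU_n(q), q even, has 2-rank at least 3.
import Mathlib
import Cfsg.Agent.Lib.Helper17.R3.Defs
import Cfsg.Agent.Lib.Helper13.UTransvComm
import Cfsg.Agent.Lib.Helper45.HermCenter
import Cfsg.Agent.Lib.Helper18.FrobFix

set_option autoImplicit false
set_option linter.unusedSectionVars false
set_option linter.unusedSimpArgs false

namespace Cfsg.Agent.Lib.Helper1.R3

open Matrix Cfsg.Agent.Lib.Helper45 Cfsg.Agent.Lib.Helper44 Cfsg.Agent.Lib.Helper13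

section Core

variable {F : Type} [Field F] [Fintype F] [CharP F 2] {q : ℕ} {n : ℕ}

/-- `N(a,c) = a x x* + c x y* + c^q y x*`. -/
def nMat (q : ℕ) (x y : Fin n → F) (a c : F) : Matrix (Fin n) (Fin n) F :=
  a • hermRank1 q x x + c • hermRank1 q x y + c ^ q • hermRank1 q y x

theorem hermRank1_mul (a b c d : Fin n → F) :
    hermRank1 q a b * hermRank1 q c d = Cfsg.hermForm n F q c b • hermRank1 q a d := by
  ext i j
  simp only [hermRank1, Matrix.mul_apply, Matrix.vecMulVec_apply, Matrix.smul_apply, smul_eq_mul,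
    herm_def, Finset.sum_mul]
  apply Finset.sum_congr rfl
  intro k _
  ring

theorem nMat_mul (x y : Fin n → F) (hxx : Cfsg.hermForm n F q x x = 0)
    (hxy : Cfsg.hermForm n F q x y = 0) (hyx : Cfsg.hermForm n F q y x = 0)
    (hyy : Cfsg.hermForm n F q y y = 0) (a c a' c' : F) :
    nMat q x y a c * nMat q x y a' c' = 0 := by
  unfold nMat
  simp only [mul_add, add_mul, smul_mul_assoc, mul_smul_comm, hermRank1_mul, hxx, hxy, hyx, hyy,
    zero_smul, smul_zero, add_zero]

theorem mMat_mul (x y : Fin n → F) (hxx : Cfsg.hermForm n F q x x = 0)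
    (hxy : Cfsg.hermForm n F q x y = 0) (hyx : Cfsg.hermForm n F q y x = 0)
    (hyy : Cfsg.hermForm n F q y y = 0) (a c a' c' : F) :
    (1 + nMat q x y a c) * (1 + nMat q x y a' c') = 1 + (nMat q x y a c + nMat q x y a' c') := by
  rw [mul_add, add_mul, add_mul, nMat_mul x y hxx hxy hyx hyy, one_mul, mul_one, one_mul,
    add_zero, add_assoc]

theorem mMat_sq (x y : Fin n → F) (hxx : Cfsg.hermForm n F q x x = 0)
    (hxy : Cfsg.hermForm n F q x y = 0) (hyx : Cfsg.hermForm n F q y x = 0)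
    (hyy : Cfsg.hermForm n F q y y = 0) (a c : F) :
    (1 + nMat q x y a c) * (1 + nMat q x y a c) = 1 := by
  rw [mMat_mul x y hxx hxy hyx hyy, ← two_smul F (nMat q x y a c), CharTwo.two_eq_zero, zero_smul,
    add_zero]

theorem mMat_det (x y : Fin n → F) (hxx : Cfsg.hermForm n F q x x = 0)
    (hxy : Cfsg.hermForm n F q x y = 0) (hyx : Cfsg.hermForm n F q y x = 0)
    (hyy : Cfsg.hermForm n F q y y = 0) (a c : F) :
    (1 + nMat q x y a c).det = 1 := by
  have h := congrArg Matrix.det (mMat_sq x y hxx hxy hyx hyy a c)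
  rw [Matrix.det_mul, Matrix.det_one] at h
  have h2 : ((1 + nMat q x y a c).det - 1) ^ 2 = 0 := by
    have h3 : (2 : F) = 0 := CharTwo.two_eq_zero
    linear_combination h + (1 - (1 + nMat q x y a c).det) * h3
  exact sub_eq_zero.mp (pow_eq_zero_iff (two_ne_zero) |>.mp h2)

theorem mMat_mulVec (x y : Fin n → F) (a c : F) (u : Fin n → F) :
    (1 + nMat q x y a c) *ᵥ u = u + (a * Cfsg.hermForm n F q u x) • x +
      (c * Cfsg.hermForm n F q u y) • x + (c ^ q * Cfsg.hermForm n F q u x) • y := by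
  unfold nMat
  rw [Matrix.add_mulVec, Matrix.one_mulVec, Matrix.add_mulVec, Matrix.add_mulVec,
    Matrix.smul_mulVec, Matrix.smul_mulVec, Matrix.smul_mulVec, hermRank1_mulVec,
    hermRank1_mulVec, hermRank1_mulVec, smul_smul, smul_smul, smul_smul, add_assoc, add_assoc,
    add_assoc]

theorem mMat_iso (hF : Fintype.card F = q ^ 2) (x y : Fin n → F)
    (hxx : Cfsg.hermForm n F q x x = 0)
    (hxy : Cfsg.hermForm n F q x y = 0) (hyx : Cfsg.hermForm n F q y x = 0)
    (hyy : Cfsg.hermForm n F q y y = 0) (a c : F) (ha : a ^ q = a) :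
    IsHermIso n F q (1 + nMat q x y a c) := by
  intro u v
  rw [mMat_mulVec, mMat_mulVec]
  simp only [herm_add_left, herm_add_right hF, herm_smul_left, herm_smul_right, hxx, hxy, hyx,
    hyy, conj_add hF, mul_pow, ha, conj_conj hF, herm_conj hF]
  have h3 : (2 : F) = 0 := CharTwo.two_eq_zero
  linear_combination (a * Cfsg.hermForm n F q u x * Cfsg.hermForm n F q x v +
    c * Cfsg.hermForm n F q u y * Cfsg.hermForm n F q x v +
    c ^ q * Cfsg.hermForm n F q u x * Cfsg.hermForm n F q y v) * h3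

/-- the core: a family of commuting involutions of `SU`, separated modulo the centre by their
off-diagonal entries. -/
theorem r3_su_core (hF : Fintype.card F = q ^ 2) (x y : Fin n → F)
    (hxx : Cfsg.hermForm n F q x x = 0)
    (hxy : Cfsg.hermForm n F q x y = 0) (hyx : Cfsg.hermForm n F q y x = 0)
    (hyy : Cfsg.hermForm n F q y y = 0) {P : Type} [Finite P] (α γ : P → F)
    (hα : ∀ p, α p ^ q = α p)
    (hsep : ∀ p p', (∀ i j, i ≠ j →
      (nMat q x y (α p) (γ p) + nMat q x y (α p') (γ p')) i j = 0) → p = p')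
    (hcard : 8 ≤ Nat.card P) : Cfsg.PRankAtLeast 2 3 (Cfsg.PSU n F q) := by
  classical
  let φ : P → ↥(Cfsg.SU n F q) := fun p =>
    suMk (1 + nMat q x y (α p) (γ p)) (mMat_det x y hxx hxy hyx hyy _ _)
      (mMat_iso hF x y hxx hxy hyx hyy _ _ (hα p))
  have hmul : ∀ p p', (((φ p * φ p' : ↥(Cfsg.SU n F q)) : Matrix.SpecialLinearGroup (Fin n) F) :
      Matrix (Fin n) (Fin n) F) = 1 + (nMat q x y (α p) (γ p) + nMat q x y (α p') (γ p')) := by
    intro p p'
    exact mMat_mul x y hxx hxy hyx hyy _ _ _ _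
  have hsq : ∀ p, φ p * φ p = 1 := by
    intro p
    apply su_ext
    exact mMat_sq x y hxx hxy hyx hyy _ _
  refine Cfsg.Agent.Lib.Helper17.R3.r3_quot (Subgroup.center (Cfsg.SU n F q)) φ ?_ hsq ?_ hcard
  · intro p p'
    apply su_ext
    rw [hmul, hmul, add_comm (nMat q x y (α p) (γ p))]
  · intro p p' hc
    have hinv : (φ p)⁻¹ = φ p := inv_eq_of_mul_eq_one_right (hsq p)
    rw [hinv] at hc
    apply hsep
    intro i j hij
    have hZ : ∀ M : Matrix (Fin n) (Fin n) F, IsHermIso n F q M → M.det = 1 →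
        M * (1 + (nMat q x y (α p) (γ p) + nMat q x y (α p') (γ p'))) =
          (1 + (nMat q x y (α p) (γ p) + nMat q x y (α p') (γ p'))) * M := by
      intro M hM hdet
      have h1 := Subgroup.mem_center_iff.mp hc (suMk M hdet hM)
      have h2 := congrArg (fun g : ↥(Cfsg.SU n F q) =>
        ((g : Matrix.SpecialLinearGroup (Fin n) F) : Matrix (Fin n) (Fin n) F)) h1
      have h3 : M * (((φ p * φ p' : ↥(Cfsg.SU n F q)) : Matrix.SpecialLinearGroup (Fin n) F) :
          Matrix (Fin n) (Fin n) F) = (((φ p * φ p' : ↥(Cfsg.SU n F q)) :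
          Matrix.SpecialLinearGroup (Fin n) F) : Matrix (Fin n) (Fin n) F) * M := h2
      rw [hmul] at h3
      exact h3
    have h4 := central_offdiag hF _ hZ i j hij
    rw [Matrix.add_apply, Matrix.one_apply_ne hij, zero_add] at h4
    exact h4

/-- `n ≥ 3`, `q ≥ 8`: the transvections with centre `e₀ + e₁`. -/
theorem r3_su_three (hF : Fintype.card F = q ^ 2) (hn : 3 ≤ n) (hq8 : 8 ≤ q) :
    Cfsg.PRankAtLeast 2 3 (Cfsg.PSU n F q) := by
  classical
  have hq : q ≠ 0 := by omega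
  have h11 : (1 : F) + 1 = 0 := CharTwo.add_self_eq_zero 1
  obtain ⟨i0, i1, h01⟩ : ∃ i0 i1 : Fin n, i0 ≠ i1 :=
    ⟨⟨0, by omega⟩, ⟨1, by omega⟩, by simp [Fin.ext_iff]⟩
  have h10 : i1 ≠ i0 := h01.symm
  obtain ⟨x, hx⟩ : ∃ x : Fin n → F, x = Pi.single i0 1 + Pi.single i1 1 := ⟨_, rfl⟩
  have hx0 : x i0 = 1 := by rw [hx]; simp [Pi.single_apply, h01]
  have hx1 : x i1 = 1 := by rw [hx]; simp [Pi.single_apply, h10]
  have hxv : ∀ v : Fin n → F, Cfsg.hermForm n F q x v = v i0 ^ q + v i1 ^ q := by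
    intro v
    conv_lhs => rw [hx]
    rw [herm_add_left, herm_single_left hF, herm_single_left hF]
  have hxx : Cfsg.hermForm n F q x x = 0 := by rw [hxv, hx0, hx1, one_pow]; exact h11
  have hx0' : Cfsg.hermForm n F q x (0 : Fin n → F) = 0 := by
    simp [herm_def, zero_pow hq]
  have h0x : ∀ v : Fin n → F, Cfsg.hermForm n F q (0 : Fin n → F) v = 0 := fun v =>
    herm_zero_left hF n v
  refine r3_su_core (P := {a : F // a ^ q = a}) hF x 0 hxx hx0' (h0x x) (h0x 0)
    (fun p => p.1) (fun _ => 0) (fun p => p.2) ?_ ?_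
  · intro p p' h
    have h1 := h i1 i0 h10
    have e : ∀ a : F, nMat q x (0 : Fin n → F) a 0 i1 i0 = a := by
      intro a
      simp [nMat, hermRank1, Matrix.vecMulVec_apply, hx0, hx1, zero_pow hq]
    rw [Matrix.add_apply, e, e] at h1
    exact Subtype.ext (CharTwo.add_eq_zero.mp h1)
  · rw [Cfsg.Agent.Lib.Helper18.card_pow_eq_self q (by omega) hF]
    exact hq8

/-- `n ≥ 4`: transvections with centre `e₀ + e₁` times Eichler elements for `e₀ + e₁`,
`e₂ + e₃`. -/
theorem r3_su_four (hF : Fintype.card F = q ^ 2) (hn : 4 ≤ n) :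
    Cfsg.PRankAtLeast 2 3 (Cfsg.PSU n F q) := by
  classical
  have hq2 : 2 ≤ q := two_le_q hF
  have hq : q ≠ 0 := by omega
  have h11 : (1 : F) + 1 = 0 := CharTwo.add_self_eq_zero 1
  obtain ⟨i0, i1, i2, i3, h01, h02, h03, h12, h13, h23⟩ : ∃ i0 i1 i2 i3 : Fin n,
      i0 ≠ i1 ∧ i0 ≠ i2 ∧ i0 ≠ i3 ∧ i1 ≠ i2 ∧ i1 ≠ i3 ∧ i2 ≠ i3 :=
    ⟨⟨0, by omega⟩, ⟨1, by omega⟩, ⟨2, by omega⟩, ⟨3, by omega⟩, by simp [Fin.ext_iff],
      by simp [Fin.ext_iff], by simp [Fin.ext_iff], by simp [Fin.ext_iff], by simp [Fin.ext_iff],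
      by simp [Fin.ext_iff]⟩
  obtain ⟨x, hx⟩ : ∃ x : Fin n → F, x = Pi.single i0 1 + Pi.single i1 1 := ⟨_, rfl⟩
  obtain ⟨y, hy⟩ : ∃ y : Fin n → F, y = Pi.single i2 1 + Pi.single i3 1 := ⟨_, rfl⟩
  have hx0 : x i0 = 1 := by rw [hx]; simp [Pi.single_apply, h01]
  have hx1 : x i1 = 1 := by rw [hx]; simp [Pi.single_apply, h01.symm]
  have hx2 : x i2 = 0 := by rw [hx]; simp [Pi.single_apply, h02.symm, h12.symm]
  have hx3 : x i3 = 0 := by rw [hx]; simp [Pi.single_apply, h03.symm, h13.symm]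
  have hy0 : y i0 = 0 := by rw [hy]; simp [Pi.single_apply, h02, h03]
  have hy1 : y i1 = 0 := by rw [hy]; simp [Pi.single_apply, h12, h13]
  have hy2 : y i2 = 1 := by rw [hy]; simp [Pi.single_apply, h23]
  have hy3 : y i3 = 1 := by rw [hy]; simp [Pi.single_apply, h23.symm]
  have hxv : ∀ v : Fin n → F, Cfsg.hermForm n F q x v = v i0 ^ q + v i1 ^ q := by
    intro v
    conv_lhs => rw [hx]
    rw [herm_add_left, herm_single_left hF, herm_single_left hF]
  have hyv : ∀ v : Fin n → F, Cfsg.hermForm n F q y v = v i2 ^ q + v i3 ^ q := by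
    intro v
    conv_lhs => rw [hy]
    rw [herm_add_left, herm_single_left hF, herm_single_left hF]
  have hxx : Cfsg.hermForm n F q x x = 0 := by rw [hxv, hx0, hx1, one_pow]; exact h11
  have hxy : Cfsg.hermForm n F q x y = 0 := by rw [hxv, hy0, hy1, zero_pow hq, add_zero]
  have hyx : Cfsg.hermForm n F q y x = 0 := by rw [hyv, hx2, hx3, zero_pow hq, add_zero]
  have hyy : Cfsg.hermForm n F q y y = 0 := by rw [hyv, hy2, hy3, one_pow]; exact h11
  refine r3_su_core (P := Bool × F) hF x y hxx hxy hyx hyy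
    (fun p => if p.1 then 1 else 0) (fun p => p.2) ?_ ?_ ?_
  · intro p
    split_ifs
    · exact one_pow q
    · exact zero_pow hq
  · intro p p' h
    have h1 := h i1 i0 h01.symm
    have h2 := h i0 i2 h02
    have e1 : ∀ a c : F, nMat q x y a c i1 i0 = a := by
      intro a c
      simp [nMat, hermRank1, Matrix.vecMulVec_apply, hx0, hx1, hy0, hy1, zero_pow hq]
    have e2 : ∀ a c : F, nMat q x y a c i0 i2 = c := by
      intro a c
      simp [nMat, hermRank1, Matrix.vecMulVec_apply, hx0, hx2, hy0, hy2, zero_pow hq]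
    rw [Matrix.add_apply, e1, e1] at h1
    rw [Matrix.add_apply, e2, e2] at h2
    have h1' := CharTwo.add_eq_zero.mp h1
    have h2' := CharTwo.add_eq_zero.mp h2
    obtain ⟨b, c⟩ := p
    obtain ⟨b', c'⟩ := p'
    simp only at h1' h2'
    subst h2'
    have hb : b = b' := by
      cases b <;> cases b' <;> simp at h1' ⊢
    rw [hb]
  · rw [Nat.card_prod, Nat.card_eq_fintype_card, Nat.card_eq_fintype_card, Fintype.card_bool, hF]
    nlinarith

end Core

/-- **[PSU]** `PSU_n(q)`, `q` even, `n ≥ 3`, `q ≥ 8` if `n = 3`, has 2-rank at least 3. -/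
theorem pkgPSU : Cfsg.Agent.Lib.Helper17.R3.PkgPSU := by
  intro F _ _ _ n q hF hn h3
  by_cases h : n = 3
  · exact r3_su_three hF hn (h3 h)
  · exact r3_su_four hF (by omega)

end Cfsg.Agent.Lib.Helper1.R3
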